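import Mathlib

set_option autoImplicit false

namespace Cfsg.Agent.Lib.Helper89.O10

theorem arith_ten {q N : ℕ} (hq : 2 ≤ q) (hN : N + q ^ 4 = q ^ 9 + q ^ 5) :
    ¬ q ^ 2 - 1 ∣ N - 1 := by
  obtain ⟨s, rfl⟩ : ∃ s, q = s + 2 := ⟨q - 2, by omega⟩
  rintro ⟨k, hk⟩
  have h1 : 1 ≤ (s + 2) ^ 2 := Nat.one_le_pow _ _ (by omega)
  have hN1 : 1 ≤ N := by
    by_contra h
    have hN0 : N = 0 := by omega
    rw [hN0, zero_add] at hN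
    have : (s + 2) ^ 4 < (s + 2) ^ 5 := Nat.pow_lt_pow_right (by omega) (by omega)
    have : 0 < (s + 2) ^ 9 := by positivity
    omega
  have hkz : (N : ℤ) - 1 = (((s : ℤ) + 2) ^ 2 - 1) * k := by
    have := congrArg (fun x : ℕ => (x : ℤ)) hk
    push_cast [Nat.cast_sub hN1, Nat.cast_sub h1] at this
    exact this
  have hNz : (N : ℤ) + ((s : ℤ) + 2) ^ 4 = ((s : ℤ) + 2) ^ 9 + ((s : ℤ) + 2) ^ 5 := by
    exact_mod_cast hN
  set t : ℤ := (s : ℤ) + 2 with ht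
  have ht2 : 2 ≤ t := by rw [ht]; omega
  -- (t^2-1) divides 2t-2
  have hdiv : (t ^ 2 - 1) * ((k : ℤ) - (t ^ 7 + t ^ 5 + 2 * t ^ 3 - t ^ 2 + 2 * t - 1)) = 2 * t - 2 := by
    have : (N : ℤ) - 1 = t ^ 9 + t ^ 5 - t ^ 4 - 1 := by linarith
    rw [mul_sub, ← hkz, this]
    ring
  have hd : (t ^ 2 - 1) ∣ (2 * t - 2) := ⟨_, hdiv.symm⟩
  have hle := Int.le_of_dvd (by linarith) hd
  nlinarith

end Cfsg.Agent.Lib.Helper89.O10
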