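import Mathlib

set_option autoImplicit false

namespace Cfsg.Agent.Lib.Helper89.O10

open scoped commutatorElement

theorem commutator_le_of_involutions {G : Type*} [Group G] (N N₁ : Subgroup G) (h1 : N₁ ≤ N)
    (hab : ∀ x ∈ N₁, ∀ y ∈ N₁, x * y = y * x) (hinv : ∀ x ∈ N, x ∉ N₁ → x * x = 1)
    (y₀ : G) (hy₀ : y₀ ∈ N₁) (h₀ : y₀ * y₀ ≠ 1) : ⁅N, N⁆ ≤ N₁ := by
  have hout : ∀ z ∈ N, z ∉ N₁ → ∀ a ∈ N₁, z * a ∉ N₁ := by
    intro z _ hz1 a ha h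
    apply hz1
    have := N₁.mul_mem h (N₁.inv_mem ha)
    rwa [mul_inv_cancel_right] at this
  have hzinv : ∀ z ∈ N, z ∉ N₁ → z⁻¹ = z := by
    intro z hz hz1
    rw [inv_eq_iff_mul_eq_one]
    exact hinv z hz hz1
  have hconj : ∀ z ∈ N, z ∉ N₁ → ∀ a ∈ N₁, z * a * z⁻¹ = a⁻¹ := by
    intro z hz hz1 a ha
    have h2 := hinv (z * a) (N.mul_mem hz (h1 ha)) (hout z hz hz1 a ha)
    rw [hzinv z hz hz1, eq_inv_iff_mul_eq_one]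
    calc z * a * z * a = (z * a) * (z * a) := by group
      _ = 1 := h2
  have hprod : ∀ z ∈ N, z ∉ N₁ → ∀ z' ∈ N, z' ∉ N₁ → z * z' ∈ N₁ := by
    intro z hz hz1 z' hz' hz1'
    by_contra hcon
    have e1 := hconj (z * z') (N.mul_mem hz hz') hcon y₀ hy₀
    have e2 := hconj z' hz' hz1' y₀ hy₀
    have e3 := hconj z hz hz1 y₀⁻¹ (N₁.inv_mem hy₀)
    have e4 : z * z' * y₀ * (z * z')⁻¹ = z * (z' * y₀ * z'⁻¹) * z⁻¹ := by group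
    rw [e4, e2, e3, inv_inv] at e1
    apply h₀
    rw [← eq_inv_iff_mul_eq_one]
    exact e1
  rw [Subgroup.commutator_le]
  intro z1 hz1 z2 hz2
  rw [commutatorElement_def]
  by_cases a1 : z1 ∈ N₁ <;> by_cases a2 : z2 ∈ N₁
  · exact N₁.mul_mem (N₁.mul_mem (N₁.mul_mem a1 a2) (N₁.inv_mem a1)) (N₁.inv_mem a2)
  · have e := hconj z2 hz2 a2 z1⁻¹ (N₁.inv_mem a1)
    rw [inv_inv] at e
    have : z1 * z2 * z1⁻¹ * z2⁻¹ = z1 * (z2 * z1⁻¹ * z2⁻¹) := by group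
    rw [this, e]
    exact N₁.mul_mem a1 a1
  · rw [hconj z1 hz1 a1 z2 a2]
    exact N₁.mul_mem (N₁.inv_mem a2) (N₁.inv_mem a2)
  · rw [hzinv z1 hz1 a1, hzinv z2 hz2 a2]
    have : z1 * z2 * z1 * z2 = (z1 * z2) * (z1 * z2) := by group
    rw [this]
    exact N₁.mul_mem (hprod z1 hz1 a1 z2 hz2 a2) (hprod z1 hz1 a1 z2 hz2 a2)

end Cfsg.Agent.Lib.Helper89.O10
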