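import Mathlib

set_option autoImplicit false

namespace Cfsg.Agent.Lib.Helper89.O10

variable {F : Type*} [Field F]

theorem isSquare_neg_iff_of_not_isSquare [Fintype F] (h2 : (2 : F) ≠ 0) {δ : F}
    (hδ : ¬ IsSquare δ) : IsSquare (-δ) ↔ Fintype.card F % 4 = 3 := by
  classical
  have hchar : ringChar F ≠ 2 := by
    intro h
    apply h2
    have := ringChar.Nat.cast_ringChar (R := F)
    rw [h] at this
    exact_mod_cast this
  have hδ0 : δ ≠ 0 := by
    rintro rfl
    exact hδ ⟨0, by simp⟩
  have h1 : quadraticChar F δ = -1 := (quadraticChar_neg_one_iff_not_isSquare).2 hδ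
  have hm : quadraticChar F (-δ) = quadraticChar F (-1) * quadraticChar F δ := by
    rw [← map_mul, neg_one_mul]
  have hn0 : -δ ≠ 0 := neg_ne_zero.2 hδ0
  rw [← quadraticChar_one_iff_isSquare hn0, hm, h1]
  have h3 := FiniteField.isSquare_neg_one_iff (F := F)
  constructor
  · intro h
    by_contra hne
    have hs : IsSquare (-1 : F) := h3.2 hne
    rw [(quadraticChar_one_iff_isSquare (by simp)).2 hs] at h
    norm_num at h
  · intro h
    have hs : ¬ IsSquare (-1 : F) := fun hs => (h3.1 hs) h
    rw [(quadraticChar_neg_one_iff_not_isSquare).2 hs]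
    norm_num

end Cfsg.Agent.Lib.Helper89.O10
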