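import Mathlib
import Cfsg.Agent.S0752

set_option autoImplicit false

/-! # O10 farm, piece T4: no invertible alternating matrix of odd size -/

namespace Cfsg.Agent.Lib.Helper89.O10

open Matrix

variable {F : Type*} [Field F]

theorem alt_quadratic_zero {n : ℕ} (G : Matrix (Fin n) (Fin n) F)
    (hs : Gᵀ = -G) (hd : ∀ i, G i i = 0) (v : Fin n → F) : v ⬝ᵥ (G *ᵥ v) = 0 := by
  classical
  let U : Matrix (Fin n) (Fin n) F := Matrix.of fun i j => if i < j then G i j else 0
  have hU : ∀ i j, U i j = if i < j then G i j else 0 := fun i j => rfl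
  have hG : G = U - Uᵀ := by
    ext i j
    have hji : G j i = - G i j := by
      have := congrFun (congrFun hs i) j
      simpa using this
    rw [Matrix.sub_apply, Matrix.transpose_apply, hU, hU]
    rcases lt_trichotomy i j with h | h | h
    · simp [h, not_lt.2 h.le]
    · subst h
      simp [hd]
    · simp [h, not_lt.2 h.le, hji]
  have h1 : v ⬝ᵥ (Uᵀ *ᵥ v) = v ⬝ᵥ (U *ᵥ v) := by
    rw [Matrix.mulVec_transpose, Matrix.dotProduct_mulVec, dotProduct_comm]
  rw [hG, Matrix.sub_mulVec, dotProduct_sub, h1, sub_self]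

theorem no_alt_odd {n : ℕ} (hn : Odd n) (G : Matrix (Fin n) (Fin n) F) (h : IsUnit G.det)
    (hs : Gᵀ = -G) (hd : ∀ i, G i i = 0) : False := by
  classical
  let B : LinearMap.BilinForm F (Fin n → F) := Matrix.toBilin' G
  have hB : ∀ u v, B u v = u ⬝ᵥ (G *ᵥ v) := fun u v => Matrix.toBilin'_apply' G u v
  have hA : B.IsAlt := fun v => by
    rw [hB]; exact alt_quadratic_zero G hs hd v
  obtain ⟨m, k, b, -, -, -, h4⟩ := Cfsg.Agent.S0752.result B hA
  have hk : k = 0 := by
    by_contra hne
    have j : Fin k := ⟨0, Nat.pos_of_ne_zero hne⟩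
    have hb0 : b (Sum.inr j) ≠ 0 := b.ne_zero (Sum.inr j)
    apply hb0
    have h5 : (b (Sum.inr j)) ᵥ* G = 0 := by
      funext i
      have := h4 j (Pi.single i 1)
      rw [hB, Matrix.dotProduct_mulVec] at this
      simpa using this
    have hinj := Matrix.vecMul_injective_of_isUnit ((Matrix.isUnit_iff_isUnit_det G).2 h)
    exact hinj (by show _ ᵥ* G = 0 ᵥ* G; rw [h5, Matrix.zero_vecMul])
  subst hk
  have e1 := Module.finrank_eq_card_basis b
  simp at e1
  rcases hn with ⟨t, ht⟩
  omega

end Cfsg.Agent.Lib.Helper89.O10
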